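import Mathlib
set_option linter.all false

/-!
The universal property of the (generalized) quaternion groups `QuaternionGroup n`.
-/

set_option autoImplicit false

namespace Cfsg.Agent.H560

/-- powers of `x` indexed by `ZMod (2 * n)` -/
def zpw {G : Type*} [Group G] (m : ℕ) (x : G) (hx : x ^ m = 1) : ZMod m →+ Additive G :=
  ZMod.lift m ⟨(zmultiplesHom (Additive G)) (Additive.ofMul x), by
    rw [zmultiplesHom_apply, natCast_zsmul]
    exact congrArg Additive.ofMul hx⟩

/-- the `x`-power indexed by a residue class -/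
def pw {G : Type*} [Group G] (m : ℕ) (x : G) (hx : x ^ m = 1) (k : ZMod m) : G :=
  (zpw m x hx k).toMul

section
variable {G : Type*} [Group G] (m : ℕ) (x : G) (hx : x ^ m = 1)

theorem pw_add (a b : ZMod m) : pw m x hx (a + b) = pw m x hx a * pw m x hx b := by
  unfold pw; rw [map_add]; rfl

theorem pw_neg (a : ZMod m) : pw m x hx (-a) = (pw m x hx a)⁻¹ := by
  unfold pw; rw [map_neg]; rfl

theorem pw_zero : pw m x hx 0 = 1 := by
  unfold pw; rw [map_zero]; rfl

theorem pw_intCast (k : ℤ) : pw m x hx (k : ZMod m) = x ^ k := by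
  unfold pw zpw
  rw [ZMod.lift_coe]
  rfl

theorem pw_natCast (k : ℕ) : pw m x hx (k : ZMod m) = x ^ k := by
  have := pw_intCast m x hx k
  rwa [Int.cast_natCast, zpow_natCast] at this

theorem exists_int (a : ZMod m) : ∃ k : ℤ, (k : ZMod m) = a := ZMod.intCast_surjective a

theorem pw_conj {y : G} (hxy : x * y = y * x⁻¹) (a : ZMod m) :
    pw m x hx a * y = y * pw m x hx (-a) := by
  obtain ⟨k, rfl⟩ := exists_int m a
  rw [pw_neg, pw_intCast, ← inv_zpow]
  have h1 : SemiconjBy y x⁻¹ x := hxy.symm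
  exact (h1.zpow_right k).symm

end

/-- **The universal property of the quaternion groups.** -/
def quatHom {G : Type*} [Group G] (n : ℕ) (x y : G) (hx : x ^ (2 * n) = 1) (hy : y * y = x ^ n)
    (hxy : x * y = y * x⁻¹) : QuaternionGroup n →* G where
  toFun g := match g with
    | .a k => pw (2 * n) x hx k
    | .xa k => y * pw (2 * n) x hx k
  map_one' := by
    show pw (2 * n) x hx 0 = 1
    exact pw_zero _ _ _
  map_mul' := by
    rintro (i | i) (j | j)
    · rw [QuaternionGroup.a_mul_a]
      exact pw_add _ _ _ _ _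
    · rw [QuaternionGroup.a_mul_xa]
      show y * pw (2 * n) x hx (j - i) = pw (2 * n) x hx i * (y * pw (2 * n) x hx j)
      rw [← mul_assoc, pw_conj _ _ _ hxy, mul_assoc, ← pw_add, neg_add_eq_sub]
    · rw [QuaternionGroup.xa_mul_a]
      show y * pw (2 * n) x hx (i + j) = y * pw (2 * n) x hx i * pw (2 * n) x hx j
      rw [mul_assoc, ← pw_add]
    · rw [QuaternionGroup.xa_mul_xa]
      show pw (2 * n) x hx ((n : ZMod (2 * n)) + j - i) =
        y * pw (2 * n) x hx i * (y * pw (2 * n) x hx j)
      have h1 : y * pw (2 * n) x hx i * (y * pw (2 * n) x hx j) =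
          y * (pw (2 * n) x hx i * y) * pw (2 * n) x hx j := by group
      rw [h1, pw_conj _ _ _ hxy, ← mul_assoc y y, hy, mul_assoc, ← pw_add, ← pw_natCast _ x hx n,
        ← pw_add]
      congr 1
      ring

theorem quatHom_a {G : Type*} [Group G] (n : ℕ) (x y : G) (hx : x ^ (2 * n) = 1) (hy : y * y = x ^ n)
    (hxy : x * y = y * x⁻¹) (k : ZMod (2 * n)) :
    quatHom n x y hx hy hxy (.a k) = pw (2 * n) x hx k := rfl

theorem quatHom_xa {G : Type*} [Group G] (n : ℕ) (x y : G) (hx : x ^ (2 * n) = 1) (hy : y * y = x ^ n)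
    (hxy : x * y = y * x⁻¹) (k : ZMod (2 * n)) :
    quatHom n x y hx hy hxy (.xa k) = y * pw (2 * n) x hx k := rfl

end Cfsg.Agent.H560
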