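import Cfsg.Prelude.Def_Solvable
import Cfsg.Agent.S0035
import Cfsg.Agent.S0039
import Cfsg.Agent.S0068
import Cfsg.Agent.Solvable.FrobeniusKernel
import Mathlib
set_option linter.all false

/-!
A finite abelian group of odd order with two anticommuting injective endomorphisms has square
order; a Frobenius complement containing a pair of anticommuting elements (for instance, a
quaternion subgroup) has a kernel of odd square order.
-/

set_option autoImplicit false
set_option linter.style.haveILetI false
set_option linter.unusedVariables false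

namespace Cfsg.Agent.H560

/-- Over a field of odd characteristic, a space with two anticommuting injective linear maps has
even dimension. -/
theorem even_finrank_of_anticomm {F V : Type*} [Field F] [AddCommGroup V] [Module F V]
    [FiniteDimensional F V] (h2 : (2 : F) ≠ 0) (f g : V →ₗ[F] V) (hf : Function.Injective f)
    (hg : Function.Injective g) (hfg : ∀ v, f (g v) = -g (f v)) :
    Even (Module.finrank F V) := by
  have h1 : f ∘ₗ g = (-1 : F) • (g ∘ₗ f) := by
    ext v
    simp [hfg]
  have h3 := congrArg LinearMap.det h1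
  rw [LinearMap.det_smul, LinearMap.det_comp, LinearMap.det_comp] at h3
  have hf' : LinearMap.det f ≠ 0 := by
    have h4 : IsUnit f := (Module.End.isUnit_iff f).2 ⟨hf, (LinearMap.injective_iff_surjective).1 hf⟩
    exact ((LinearMap.isUnit_iff_isUnit_det f).1 h4).ne_zero
  have hg' : LinearMap.det g ≠ 0 := by
    have h4 : IsUnit g := (Module.End.isUnit_iff g).2 ⟨hg, (LinearMap.injective_iff_surjective).1 hg⟩
    exact ((LinearMap.isUnit_iff_isUnit_det g).1 h4).ne_zero
  have h5 : (-1 : F) ^ Module.finrank F V = 1 := by
    have h6 : LinearMap.det f * LinearMap.det g ≠ 0 := mul_ne_zero hf' hg'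
    rw [mul_comm (LinearMap.det g)] at h3
    exact (mul_eq_right₀ h6).1 h3.symm
  by_contra hodd
  rw [Nat.not_even_iff_odd] at hodd
  rw [hodd.neg_one_pow] at h5
  apply h2
  linear_combination -h5

/-- Restriction of an endomorphism to an invariant subgroup. -/
def restr {V : Type*} [AddCommGroup V] (W : AddSubgroup V) (f : V →+ V) (h : ∀ v ∈ W, f v ∈ W) :
    W →+ W where
  toFun v := ⟨f v, h v v.2⟩
  map_zero' := Subtype.ext (map_zero f)
  map_add' a b := Subtype.ext (map_add f a.1 b.1)

/-- The case of a space over the field of `p` elements. -/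
theorem isSquare_card_zmod (p : ℕ) [hp : Fact p.Prime] (hp2 : p ≠ 2) {V : Type*} [AddCommGroup V]
    [Finite V] [Module (ZMod p) V] (f g : V →+ V) (hf : Function.Injective f)
    (hg : Function.Injective g) (hfg : ∀ v, f (g v) = -g (f v)) : IsSquare (Nat.card V) := by
  have h20 : (2 : ZMod p) ≠ 0 := by
    intro h
    have h7 : ((2 : ℕ) : ZMod p) = 0 := by exact_mod_cast h
    rw [ZMod.natCast_eq_zero_iff] at h7
    exact hp2 ((Nat.prime_dvd_prime_iff_eq hp.out Nat.prime_two).1 h7)
  have hfin : FiniteDimensional (ZMod p) V := Module.Finite.of_finite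
  obtain ⟨k, hk⟩ := even_finrank_of_anticomm h20 (f.toZModLinearMap p) (g.toZModLinearMap p)
    hf hg hfg
  rw [Module.natCard_eq_pow_finrank (K := ZMod p), hk, Nat.card_zmod]
  exact ⟨p ^ k, by ring⟩

/-- **A finite abelian group of odd order with two anticommuting injective endomorphisms has
square order.** -/
theorem isSquare_card_of_anticomm : ∀ (n : ℕ) {V : Type*} [AddCommGroup V] [Finite V]
    (_ : Nat.card V = n) (_ : Odd (Nat.card V)) (f g : V →+ V) (_ : Function.Injective f)
    (_ : Function.Injective g) (_ : ∀ v, f (g v) = -g (f v)), IsSquare (Nat.card V) := by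
  intro n
  induction n using Nat.strong_induction_on with
  | _ n ih =>
    intro V _ _ hn hodd f g hf hg hfg
    by_cases h1 : Nat.card V = 1
    · rw [h1]; exact ⟨1, rfl⟩
    obtain ⟨p, hp, hpV⟩ := Nat.exists_prime_and_dvd h1
    haveI : Fact p.Prime := ⟨hp⟩
    have hp2 : p ≠ 2 := by
      rintro rfl
      rw [← Nat.not_even_iff_odd] at hodd
      exact hodd (even_iff_two_dvd.2 hpV)
    -- multiplication by `p`
    let m : V →+ V := nsmulAddMonoidHom p
    have hm : ∀ v, m v = p • v := fun v => rfl
    have hfm : ∀ v ∈ m.ker, f v ∈ m.ker := by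
      intro v hv
      rw [AddMonoidHom.mem_ker, hm] at hv ⊢
      rw [← map_nsmul, hv, map_zero]
    have hgm : ∀ v ∈ m.ker, g v ∈ m.ker := by
      intro v hv
      rw [AddMonoidHom.mem_ker, hm] at hv ⊢
      rw [← map_nsmul, hv, map_zero]
    have hfr : ∀ v ∈ m.range, f v ∈ m.range := by
      rintro _ ⟨v, rfl⟩
      exact ⟨f v, by rw [hm, hm, map_nsmul]⟩
    have hgr : ∀ v ∈ m.range, g v ∈ m.range := by
      rintro _ ⟨v, rfl⟩
      exact ⟨g v, by rw [hm, hm, map_nsmul]⟩
    have hcard : Nat.card V = Nat.card m.ker * Nat.card m.range := by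
      rw [← AddSubgroup.card_mul_index m.ker, AddSubgroup.index_ker]
    -- the kernel
    have hker : IsSquare (Nat.card m.ker) := by
      letI : Module (ZMod p) m.ker := AddCommGroup.zmodModule (fun x => by
        apply Subtype.ext
        have := x.2
        rw [AddMonoidHom.mem_ker, hm] at this
        rw [AddSubgroup.coe_nsmul, this, AddSubgroup.coe_zero])
      apply isSquare_card_zmod p hp2 (restr m.ker f hfm) (restr m.ker g hgm)
      · intro x y hxy
        apply Subtype.ext
        apply hf
        exact congrArg Subtype.val hxy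
      · intro x y hxy
        apply Subtype.ext
        apply hg
        exact congrArg Subtype.val hxy
      · intro v
        apply Subtype.ext
        exact hfg v.1
    have hkne : Nat.card m.ker ≠ 1 := by
      intro h
      obtain ⟨v, hv⟩ := exists_prime_addOrderOf_dvd_card' (G := V) p hpV
      have hv1 : v ∈ m.ker := by
        rw [AddMonoidHom.mem_ker, hm, ← hv, addOrderOf_nsmul_eq_zero]
      have h8 : Subsingleton m.ker := (Nat.card_eq_one_iff_unique.1 h).1
      have h9 : (⟨v, hv1⟩ : m.ker) = 0 := Subsingleton.elim _ _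
      have h10 : v = 0 := congrArg Subtype.val h9
      rw [h10, addOrderOf_zero] at hv
      exact hp.one_lt.ne hv
    have hlt : Nat.card m.range < n := by
      rw [← hn, hcard]
      have h11 : 0 < Nat.card m.range := Nat.card_pos
      have h12 : 0 < Nat.card m.ker := Nat.card_pos
      have h13 : 1 < Nat.card m.ker := by omega
      nlinarith
    have hrange : IsSquare (Nat.card m.range) := by
      refine ih _ hlt rfl ?_ (restr m.range f hfr)
        (restr m.range g hgr) ?_ ?_ ?_
      · rw [hcard] at hodd
        exact (Nat.odd_mul.1 hodd).2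
      · intro x y hxy
        apply Subtype.ext
        apply hf
        exact congrArg Subtype.val hxy
      · intro x y hxy
        apply Subtype.ext
        apply hg
        exact congrArg Subtype.val hxy
      · intro v
        apply Subtype.ext
        exact hfg v.1
    rw [hcard]
    exact hker.mul hrange

/-- **A Frobenius complement containing two elements `i`, `j` with `i j = z j i`, `z` an
involution, has a Frobenius kernel of odd square order.** -/
theorem odd_isSquare_card_kernel {L : Type*} [Group L] [Finite L] (H : Subgroup L)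
    (hF : Cfsg.IsFrobeniusComplement H) {i j z : L} (hi : i ∈ H) (hj : j ∈ H) (hz : z ∈ H)
    (hz2 : z * z = 1) (hz1 : z ≠ 1) (hij : i * j = z * (j * i)) :
    Odd (Nat.card (Cfsg.frobeniusKernel H)) ∧ IsSquare (Nat.card (Cfsg.frobeniusKernel H)) := by
  obtain ⟨N, hN, hNn, hc⟩ := Cfsg.Agent.S0035.result H hF
  haveI := hNn
  have hzo : orderOf z = 2 := orderOf_eq_prime (by rw [pow_two, hz2]) hz1
  have heven : 2 ∣ Nat.card H := by
    have h1 : orderOf (⟨z, hz⟩ : H) ∣ Nat.card H := orderOf_dvd_natCard _
    rwa [Subgroup.orderOf_mk, hzo] at h1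
  have hNbot : N ≠ ⊥ := by
    intro h0
    rw [h0] at hc
    exact hF.2.1 (Subgroup.isComplement'_bot_left.1 hc)
  have hfpf := (Cfsg.Agent.S0039.result N H hc hNbot hF.1).1 hF
  obtain ⟨⟨s, hs, hs2, hsu, hsinv⟩, hcomm⟩ := Cfsg.Agent.S0068.result N H hc hNbot hfpf heven
  have hzs : z = s := hsu z hz hzo
  subst hzs
  have hcardN : Nat.card (Cfsg.frobeniusKernel H) = Nat.card N := by
    rw [← hN]; rfl
  have hodd : Odd (Nat.card (Cfsg.frobeniusKernel H)) := by
    rw [Cfsg.Agent.Solvable.FrobeniusKernel.card_kernel hF]
    have h1 := Cfsg.Agent.Solvable.FrobeniusKernel.coprime_index_card hF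
    have h2 : H.index.Coprime 2 := Nat.Coprime.coprime_dvd_right heven h1
    exact Nat.coprime_two_right.1 h2
  refine ⟨hodd, ?_⟩
  rw [hcardN] at hodd ⊢
  letI : CommGroup N := { (inferInstance : Group N) with mul_comm := hcomm.is_comm.comm }
  let c : L → (Additive N →+ Additive N) := fun x =>
    { toFun := fun v => Additive.ofMul ((MulAut.conjNormal x : MulAut N) v.toMul)
      map_zero' := by
        show Additive.ofMul ((MulAut.conjNormal x : MulAut N) 1) = 0
        rw [map_one]; rfl
      map_add' := by
        intro a b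
        show Additive.ofMul ((MulAut.conjNormal x : MulAut N) (a.toMul * b.toMul)) = _
        rw [map_mul]; rfl }
  have hcval : ∀ x (v : Additive N), ((c x v).toMul : L) = x * (v.toMul : L) * x⁻¹ := by
    intro x v
    exact MulAut.conjNormal_apply x v.toMul
  have hinj : ∀ x, Function.Injective (c x) := by
    intro x a b hab
    have h3 : (MulAut.conjNormal x : MulAut N) a.toMul = (MulAut.conjNormal x : MulAut N) b.toMul :=
      congrArg Additive.toMul hab
    exact congrArg Additive.ofMul ((MulAut.conjNormal x : MulAut N).injective h3)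
  have key := isSquare_card_of_anticomm _ (V := Additive N) rfl hodd (c i) (c j) (hinj i) (hinj j) (by
    intro v
    apply Additive.toMul.injective
    apply Subtype.ext
    rw [hcval, hcval]
    show i * (j * (v.toMul : L) * j⁻¹) * i⁻¹ = (((c j (c i v)).toMul)⁻¹ : N)
    rw [Subgroup.coe_inv, hcval, hcval]
    have h4 := hsinv _ (c j (c i v)).toMul.2
    rw [hcval, hcval] at h4
    rw [← h4]
    calc i * (j * (v.toMul : L) * j⁻¹) * i⁻¹ = (i * j) * (v.toMul : L) * (i * j)⁻¹ := by group
      _ = z * (j * i) * (v.toMul : L) * (z * (j * i))⁻¹ := by rw [hij]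
      _ = _ := by group)
  exact key

end Cfsg.Agent.H560
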